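import Cfsg.Agent.H6.PG

set_option autoImplicit false
set_option maxRecDepth 100000
set_option Elab.async false

namespace Cfsg.H6.HeV

def R : List (List ℕ) := [[7,8,7,8,7,8,7,8], [5], [1,3,1,3], [1,4,1,4], [2,4,2,4], [1,2,1,2,1,2,1,2], [2,3,2,3,2,3,2,3], [3,4,3,4,3,4,3,4], [1,2,1,3,2,1,3,2,1,3,2,3], [2,3,2,4,3,2,4,3,2,4,3,4], [1,7,1,7], [4,6,4,6], [2,6,2,6,2,6], [3,7,3,7,3,7], [6,7,6,7,6,7,6,7], [1,2,1,2,6,2,1,2,6], [2,3,2,3,6,2,3,2,6], [2,3,2,3,7,3,2,3,7], [3,4,3,4,7,3,4,3,7], [1,8,1,8], [2,8,2,8], [6,8,6,8], [4,8,4,8,4,8], [3,4,3,4,8,4,3,4,8]]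

def X : List (List ℕ) := [[1], [2], [3], [4], [5], [6], [7], [8]]

/-- The presented group. -/
abbrev Grp : Type := PG 148080050112590643456 R

def ev : ℕ → Grp := pgEv 148080050112590643456 R

theorem hev : Good ev 148080050112590643456 := pg_good _ _

theorem hR : Rels ev R := pg_rels _ _

theorem hX : gen ev X = ⊤ := pg_gen (m := 9) (by decide +kernel)

theorem lift {G : Type*} [Group G] {ev' : ℕ → G} (h : Good ev' 148080050112590643456) (h' : Rels ev' R) :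
    ∃ φ : Grp →* G, ∀ l, φ (ev l) = ev' l := pg_lift h h'

end Cfsg.H6.HeV
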